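import Mathlib
import Cfsg.Prelude.Def_Sporadic_a

set_option autoImplicit false

/-! Definitions and exact statements of the pieces for S0406 (Conway's characterisation of the
Leech lattice).  Each `Stmt…` is a `Prop`; a piece is a theorem proving it. -/

namespace Cfsg.Agent.H93.Conway

open Matrix

/-- hypotheses on the Gram matrix: symmetric, positive definite, even, no vectors of norm 2 -/
def LatHyp (B : Matrix (Fin 24) (Fin 24) ℤ) : Prop :=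
  B.IsSymm ∧ (∀ x : Fin 24 → ℤ, x ≠ 0 → 0 < x ⬝ᵥ (B *ᵥ x)) ∧
  (∀ x : Fin 24 → ℤ, (2 : ℤ) ∣ x ⬝ᵥ (B *ᵥ x)) ∧ (∀ x : Fin 24 → ℤ, x ⬝ᵥ (B *ᵥ x) ≠ 2)

/-- ORTH: two short vectors congruent modulo `2L`, not equal or opposite, have norm 8 and are
orthogonal. -/
def StmtOrth : Prop :=
  ∀ B : Matrix (Fin 24) (Fin 24) ℤ, LatHyp B → ∀ x y u : Fin 24 → ℤ,
    x ⬝ᵥ (B *ᵥ x) ≤ 8 → y ⬝ᵥ (B *ᵥ y) ≤ 8 → x - y = (2 : ℤ) • u → x ≠ y → x ≠ -y →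
    x ⬝ᵥ (B *ᵥ x) = 8 ∧ y ⬝ᵥ (B *ᵥ y) = 8 ∧ x ⬝ᵥ (B *ᵥ y) = 0

/-- CLASS: some class modulo `2L` contains at least 48 vectors of norm 8. -/
def StmtClass : Prop :=
  StmtOrth → ∀ B : Matrix (Fin 24) (Fin 24) ℤ, LatHyp B →
    {x : Fin 24 → ℤ | x ⬝ᵥ (B *ᵥ x) = 4}.ncard = 196560 →
    {x : Fin 24 → ℤ | x ⬝ᵥ (B *ᵥ x) = 6}.ncard = 16773120 →
    {x : Fin 24 → ℤ | x ⬝ᵥ (B *ᵥ x) = 8}.ncard = 398034000 →
    ∃ s : Finset (Fin 24 → ℤ), 48 ≤ s.card ∧ (∀ x ∈ s, x ⬝ᵥ (B *ᵥ x) = 8) ∧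
      ∀ x ∈ s, ∀ y ∈ s, ∃ u : Fin 24 → ℤ, x - y = (2 : ℤ) • u

/-- FRAME: such a class contains a frame of 24 pairwise orthogonal vectors of norm 8
(the rows of `E`). -/
def StmtFrame : Prop :=
  StmtOrth → ∀ B : Matrix (Fin 24) (Fin 24) ℤ, LatHyp B →
    ∀ s : Finset (Fin 24 → ℤ), 48 ≤ s.card → (∀ x ∈ s, x ⬝ᵥ (B *ᵥ x) = 8) →
    (∀ x ∈ s, ∀ y ∈ s, ∃ u : Fin 24 → ℤ, x - y = (2 : ℤ) • u) →
    ∃ E : Matrix (Fin 24) (Fin 24) ℤ,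
      E * B * Eᵀ = (8 : ℤ) • (1 : Matrix (Fin 24) (Fin 24) ℤ) ∧
      ∀ i j, ∃ w : Fin 24 → ℤ, E i - E j = (2 : ℤ) • w

/-- PARS: Parseval for the frame coordinates `x ↦ (E * B) *ᵥ x`. -/
def StmtPars : Prop :=
  ∀ B E : Matrix (Fin 24) (Fin 24) ℤ, B.IsSymm →
    E * B * Eᵀ = (8 : ℤ) • (1 : Matrix (Fin 24) (Fin 24) ℤ) →
    ∀ x y : Fin 24 → ℤ,
      ∑ i, ((E * B) *ᵥ x) i * ((E * B) *ᵥ y) i = 8 * (x ⬝ᵥ (B *ᵥ y))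

/-- the properties of the lattice in frame coordinates -/
structure IsCFL (Λ : AddSubgroup (Fin 24 → ℤ)) : Prop where
  h8 : ∀ i, (Pi.single i 8 : Fin 24 → ℤ) ∈ Λ
  h44 : ∀ i j, i ≠ j → (Pi.single i 4 + Pi.single j 4 : Fin 24 → ℤ) ∈ Λ ∧
    (Pi.single i 4 - Pi.single j 4 : Fin 24 → ℤ) ∈ Λ
  hpar : ∀ x ∈ Λ, ∀ i j, (2 : ℤ) ∣ x i - x j
  hdot : ∀ x ∈ Λ, ∀ y ∈ Λ, (8 : ℤ) ∣ ∑ i, x i * y i
  h16 : ∀ x ∈ Λ, (16 : ℤ) ∣ ∑ i, x i ^ 2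
  h32 : ∀ x ∈ Λ, x ≠ 0 → 32 ≤ ∑ i, x i ^ 2
  hcount : {x : Fin 24 → ℤ | x ∈ Λ ∧ ∑ i, x i ^ 2 = 32}.ncard = 196560

/-- COORD: the image of the lattice under the frame coordinates. -/
def StmtCoord : Prop :=
  StmtPars → ∀ B : Matrix (Fin 24) (Fin 24) ℤ, LatHyp B →
    {x : Fin 24 → ℤ | x ⬝ᵥ (B *ᵥ x) = 4}.ncard = 196560 →
    ∀ E : Matrix (Fin 24) (Fin 24) ℤ,
      E * B * Eᵀ = (8 : ℤ) • (1 : Matrix (Fin 24) (Fin 24) ℤ) →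
      (∀ i j, ∃ w : Fin 24 → ℤ, E i - E j = (2 : ℤ) • w) →
      IsCFL ((E * B).mulVecLin.toAddMonoidHom.range)

/-- L4: the vectors of `Λ` with all coordinates divisible by 4. -/
def StmtL4 : Prop :=
  ∀ Λ : AddSubgroup (Fin 24 → ℤ), IsCFL Λ → ∀ y : Fin 24 → ℤ, (∀ i, (4 : ℤ) ∣ y i) →
    ((8 : ℤ) ∣ ∑ i, y i ↔ y ∈ Λ)

/-- the binary code of `Λ`: halves of the even vectors, modulo 2 -/
def codeOf (Λ : AddSubgroup (Fin 24 → ℤ)) : Set (Fin 24 → ZMod 2) :=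
  {c | ∃ x ∈ Λ, (∀ i, (2 : ℤ) ∣ x i) ∧ ∀ i, c i = ((x i / 2 : ℤ) : ZMod 2)}

/-- CODE: the code is linear, doubly even, without words of weight 4. -/
def StmtCode : Prop :=
  StmtL4 → ∀ Λ : AddSubgroup (Fin 24 → ℤ), IsCFL Λ →
    ∃ C : Submodule (ZMod 2) (Fin 24 → ZMod 2), (C : Set (Fin 24 → ZMod 2)) = codeOf Λ ∧
      (∀ w ∈ C, 4 ∣ hammingNorm w) ∧ (∀ w ∈ C, hammingNorm w ≠ 4)

/-- DIM: a doubly even code of length 24 has dimension at most 12. -/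
def StmtDim : Prop :=
  ∀ C : Submodule (ZMod 2) (Fin 24 → ZMod 2), (∀ w ∈ C, 4 ∣ hammingNorm w) →
    Module.finrank (ZMod 2) C ≤ 12

/-- shape `(±4, ±4, 0^22)` -/
def IsT1 (x : Fin 24 → ℤ) : Prop :=
  ∃ i j : Fin 24, i ≠ j ∧ ∃ a b : ℤ, (a = 4 ∨ a = -4) ∧ (b = 4 ∨ b = -4) ∧
    x = Pi.single i a + Pi.single j b

/-- shape `((±2)^8, 0^16)` -/
def IsT2 (x : Fin 24 → ℤ) : Prop :=
  (∀ i, x i = 0 ∨ x i = 2 ∨ x i = -2) ∧ (Finset.univ.filter fun i => x i ≠ 0).card = 8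

/-- shape `(±3, (±1)^23)` -/
def IsT3 (x : Fin 24 → ℤ) : Prop :=
  ∃ i0 : Fin 24, (x i0 = 3 ∨ x i0 = -3) ∧ ∀ i, i ≠ i0 → (x i = 1 ∨ x i = -1)

/-- the three shapes of the vectors of squared length 32 -/
def Shape0 : Prop :=
  ∀ Λ : AddSubgroup (Fin 24 → ℤ), IsCFL Λ → ∀ x ∈ Λ, ∑ i, x i ^ 2 = 32 →
    IsT1 x ∨ IsT2 x ∨ IsT3 x

/-- SHAPEODD: 24 odd integers whose squares add up to 32 have the third shape. -/
def StmtShapeOdd : Prop :=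
  ∀ x : Fin 24 → ℤ, (∀ i, x i % 2 = 1) → ∑ i, x i ^ 2 = 32 → IsT3 x

/-- SHAPE -/
def StmtShape : Prop := StmtL4 → StmtCode → StmtShapeOdd → Shape0

/-- the bound for the second shape -/
def T20 : Prop :=
  ∀ Λ : AddSubgroup (Fin 24 → ℤ), IsCFL Λ →
    {x : Fin 24 → ℤ | x ∈ Λ ∧ IsT2 x}.ncard ≤ 128 * 759

/-- OCT: a doubly even code of length 24 without words of weight 4 has at most 759 words of
weight 8 (two of them meet in at most 4 points, so a 5-set lies in at most one). -/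
def StmtOct : Prop :=
  ∀ C : Submodule (ZMod 2) (Fin 24 → ZMod 2), (∀ w ∈ C, 4 ∣ hammingNorm w) →
    (∀ w ∈ C, hammingNorm w ≠ 4) →
    {w : Fin 24 → ZMod 2 | w ∈ C ∧ hammingNorm w = 8}.ncard ≤ 759

/-- T2 -/
def StmtT2 : Prop := StmtL4 → StmtCode → StmtOct → T20

/-- T3: the bound for the third shape. -/
def StmtT3 : Prop :=
  ∀ Λ : AddSubgroup (Fin 24 → ℤ), IsCFL Λ → ∀ C : Submodule (ZMod 2) (Fin 24 → ZMod 2),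
    (C : Set (Fin 24 → ZMod 2)) = codeOf Λ →
    {x : Fin 24 → ℤ | x ∈ Λ ∧ IsT3 x}.ncard ≤ 24 * Nat.card C

/-- CNT: the code has more than 2048 words and `Λ` contains a vector of the third shape. -/
def StmtCnt : Prop :=
  Shape0 → T20 → StmtT3 → ∀ Λ : AddSubgroup (Fin 24 → ℤ), IsCFL Λ →
    ∀ C : Submodule (ZMod 2) (Fin 24 → ZMod 2), (C : Set (Fin 24 → ZMod 2)) = codeOf Λ →
    2048 < Nat.card C ∧ ∃ z ∈ Λ, IsT3 z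

/-- the sign changes normalising an odd vector to be `≡ 1 (mod 4)` in every coordinate -/
def sgn (z : Fin 24 → ℤ) (i : Fin 24) : ℤ := if z i % 4 = 1 then 1 else -1

/-- SUB: after the coordinate change every vector of `Λ` is in `leechSet`. -/
def StmtSub : Prop :=
  ∀ Λ : AddSubgroup (Fin 24 → ℤ), IsCFL Λ → ∀ C : Submodule (ZMod 2) (Fin 24 → ZMod 2),
    (C : Set (Fin 24 → ZMod 2)) = codeOf Λ → ∀ e : Fin 24 ≃ Cfsg.GolayPt,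
    (∀ w : Cfsg.GolayPt → ZMod 2, w ∈ Cfsg.golayCode ↔ (fun i => w (e i)) ∈ C) →
    ∀ z ∈ Λ, IsT3 z → ∀ y : Cfsg.GolayPt → ℤ,
      (fun i => sgn z i * y (e i)) ∈ Λ → y ∈ Cfsg.leechSet

/-- SUP: after the coordinate change every vector of `leechSet` is in `Λ`. -/
def StmtSup : Prop :=
  StmtL4 → ∀ Λ : AddSubgroup (Fin 24 → ℤ), IsCFL Λ →
    ∀ C : Submodule (ZMod 2) (Fin 24 → ZMod 2),
    (C : Set (Fin 24 → ZMod 2)) = codeOf Λ → ∀ e : Fin 24 ≃ Cfsg.GolayPt,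
    (∀ w : Cfsg.GolayPt → ZMod 2, w ∈ Cfsg.golayCode ↔ (fun i => w (e i)) ∈ C) →
    ∀ z ∈ Λ, IsT3 z → ∀ y : Cfsg.GolayPt → ℤ,
      y ∈ Cfsg.leechSet → (fun i => sgn z i * y (e i)) ∈ Λ

end Cfsg.Agent.H93.Conway
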