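import Mathlib
import Cfsg.Agent.H33.C2.Defs
import Cfsg.Agent.H69.MclOutCong
import Cfsg.Agent.H93.Co2Asm

/-!
# The outer automorphism group of the second Conway group is trivial: assembly of the pieces
(team project S2070, helper33 / helper93)
-/

set_option autoImplicit false

namespace Cfsg.Agent.H93.Co2Out

open Cfsg Cfsg.Agent.H9 Cfsg.Agent.H33 Cfsg.Agent.H33.C3 Cfsg.Agent.H33.C2

theorem mem_zpowers_sub2 {G : Type*} [Group G] (H : Subgroup G) (x s : ↥H)
    (h : (s : G) ∈ Subgroup.zpowers (x : G)) : s ∈ Subgroup.zpowers x := by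
  obtain ⟨n, hn⟩ := Subgroup.mem_zpowers_iff.mp h
  refine Subgroup.mem_zpowers_iff.mpr ⟨n, Subtype.ext ?_⟩
  rw [← hn]
  simp

/-- the table vector number 0 is fixed by `pZ2` -/
theorem pZ2_zero : (pZ2 ⟨0, by norm_num⟩).val = 0 := by
  show g16 cZ2 0 = 0
  decide +kernel

/-- The assembly: the outer automorphism group of the second Conway group is trivial. -/
theorem out_co2 (hRigid : StRigid2) (hCX : StCentX2) (hFA : StFixA) (hFB : StFixB)
    (hWX : StWX2) (hWZ : StWZ2) (hWT : StWT2) (hRho : StRho2) (hU : StU0) (hIso : StIso2)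
    (hRel : StPermRel2) (hNo : StNoInv2) (hChain : StChain2) :
    Nat.card (Cfsg.Out ↥Cfsg.Spor.Co2) = 1 := by
  obtain ⟨ρ, hρ, huniq⟩ := hRho
  obtain ⟨x0, hx0G, hx0A, hx0P⟩ := hWX
  obtain ⟨z0, hz0G, hz0A, hz0P⟩ := hWZ
  obtain ⟨t0, ht0G, ht0P⟩ := hWT
  obtain ⟨r1, r2, r3, -, r4, r5, r6, r7, -, r9⟩ := hRel
  obtain ⟨n1, n2, n3, n4⟩ := hNo
  obtain ⟨x, hxdef⟩ : ∃ x : ↥G2, x = ⟨x0, hx0G⟩ := ⟨_, rfl⟩
  obtain ⟨z, hzdef⟩ : ∃ z : ↥G2, z = ⟨z0, hz0G⟩ := ⟨_, rfl⟩
  obtain ⟨t, htdef⟩ : ∃ t : ↥G2, t = ⟨t0, ht0G⟩ := ⟨_, rfl⟩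
  have hxv : (x : ↥Co0) = x0 := by rw [hxdef]
  have hzv : (z : ↥Co0) = z0 := by rw [hzdef]
  have ex : ρ x = pX2 := huniq x pX2 (by rw [hxv]; exact hx0P)
  have ez : ρ z = pZ2 := huniq z pZ2 (by rw [hzv]; exact hz0P)
  have et : ρ t = pT2 := huniq t pT2 (by rw [htdef]; exact ht0P)
  obtain ⟨hsimp, hcard⟩ := co2_isCo2 b32 b32_sq
  have hker : ρ.ker = ⊥ := by
    rcases hsimp.eq_bot_or_eq_top_of_normal ρ.ker (MonoidHom.normal_ker ρ) with h | h
    · exact h
    · exfalso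
      have hm : x ∈ ρ.ker := by rw [h]; trivial
      rw [MonoidHom.mem_ker, ex] at hm
      exact r2 hm
  have hinj : Function.Injective ρ := (MonoidHom.ker_eq_bot_iff ρ).mp hker
  -- the centraliser of x
  have hcx : ∀ s : ↥G2, s * x = x * s → s ∈ Subgroup.zpowers x := by
    intro s hs
    apply mem_zpowers_sub2
    rw [hxv]
    refine hCX x0 hx0A s.1 s.2 ?_
    have h1 := congrArg Subtype.val hs
    rw [Subgroup.coe_mul, Subgroup.coe_mul, hxv] at h1
    exact h1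
  -- elements fixing the table vector number 0 fix `leechU'`
  have hfixU : ∀ s : ↥G2, ρ s ⟨0, by norm_num⟩ = ⟨0, by norm_num⟩ →
      (s : ↥Co0) • Cfsg.Spor.leechU' = Cfsg.Spor.leechU' := by
    intro s h0
    have hv : ((-Cfsg.Spor.leechU' : leechLattice) : GolayPt → ℤ)
        = vec (fldW 192 LF4600E 0) := by
      rw [hU]; rfl
    have h1 := hρ s ⟨0, by norm_num⟩ (-Cfsg.Spor.leechU') hv
    rw [h0] at h1
    have h2 : (s : ↥Co0) • (-Cfsg.Spor.leechU') = -Cfsg.Spor.leechU' := by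
      apply Subtype.ext
      rw [h1]; exact hv.symm
    have h3 : (s : ↥Co0) • (-Cfsg.Spor.leechU') = -((s : ↥Co0) • Cfsg.Spor.leechU') :=
      Cfsg.Agent.H93.co0_map_neg (s : ↥Co0).2 _
    rw [h3] at h2
    exact neg_injective h2
  have hfa : ∀ s : ↥G2, s * z = z * s → ρ s ⟨0, by norm_num⟩ = ⟨0, by norm_num⟩ →
      s ∈ Subgroup.zpowers z := by
    intro s hs h0
    apply mem_zpowers_sub2
    rw [hzv]
    refine hFA z0 hz0A s.1 s.2 (hfixU s h0) ?_
    have h1 := congrArg Subtype.val hs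
    rw [Subgroup.coe_mul, Subgroup.coe_mul, hzv] at h1
    exact h1
  have hfb : ∀ s : ↥G2, ρ s ⟨0, by norm_num⟩ = ⟨0, by norm_num⟩ → s * z * s⁻¹ = z⁻¹ →
      False := by
    intro s h0 hs
    refine hFB z0 hz0A s.1 s.2 (hfixU s h0) ?_
    have h1 := congrArg Subtype.val hs
    rw [Subgroup.coe_mul, Subgroup.coe_mul, Subgroup.coe_inv, Subgroup.coe_inv, hzv] at h1
    exact h1
  -- no automorphism x ↦ x ^ m, z ↦ z, t ↦ t with 1 < m < 23
  have hno : ∀ m : ℕ, 1 < m → m < 23 →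
      ¬ ∃ β : ↥G2 ≃* ↥G2, β x = x ^ m ∧ β z = z ∧ β t = t := by
    intro m hm1 hm23
    rintro ⟨β, b1, b2, b3⟩
    by_cases hm : m < 22
    · have h11 : (x * z ^ 3 * t) ^ 11 = 1 := by
        apply hinj
        simp only [map_pow, map_mul, map_one, ex, ez, et]
        exact n1
      have h11' : (x ^ m * z ^ 3 * t) ^ 11 = 1 := by
        have h := congrArg β h11
        simp only [map_pow, map_mul, map_one, b1, b2, b3] at h
        exact h
      apply n2 m hm1 hm
      have h3 := congrArg ρ h11'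
      simp only [map_pow, map_mul, map_one, ex, ez, et] at h3
      exact h3
    · have hm22 : m = 22 := by omega
      subst hm22
      have hx22 : pX2 ^ 22 = pX2⁻¹ := by
        apply eq_inv_of_mul_eq_one_left
        rw [← pow_succ]; exact r1
      have h9 : (x * t * x * t * x * z ^ 2) ^ 9 = 1 := by
        apply hinj
        simp only [map_pow, map_mul, map_one, ex, ez, et]
        exact n3
      have h9' : (x ^ 22 * t * x ^ 22 * t * x ^ 22 * z ^ 2) ^ 9 = 1 := by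
        have h := congrArg β h9
        simp only [map_pow, map_mul, map_one, b1, b2, b3] at h
        exact h
      apply n4
      have h3 := congrArg ρ h9'
      simp only [map_pow, map_mul, map_one, ex, ez, et] at h3
      rw [hx22] at h3
      exact h3
  have hout : Nat.card (Cfsg.Out ↥G2) = 1 :=
    asm_abs hRigid ρ hinj 42305421312000 hcard (by norm_num) (by norm_num) x z t pX2 pZ2 pT2
      ex ez et r1 r2 r3 r4 r5 r6 ⟨0, by norm_num⟩ ⟨4599, by norm_num⟩ (Fin.ext pZ2_zero)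
      (fun j hj => (r7 j hj).imp (fun h => Fin.ext h) (fun h => Fin.ext h)) (Fin.ext r9)
      hcx hfa hfb hChain hno
  obtain ⟨e⟩ := hIso
  rw [← hout]
  exact Cfsg.Agent.H69.Mcl.card_out_congr e

end Cfsg.Agent.H93.Co2Out
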