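import Cfsg.Agent.H93.ConwayDefs
import Cfsg.Agent.H93.Leech
import Cfsg.Agent.H9.GolayUniq

set_option autoImplicit false

/-! Assembly of S0406 (Conway's characterisation of the Leech lattice) from the pieces whose
statements are in `ConwayDefs`. -/

namespace Cfsg.Agent.H93.Conway

open Matrix Cfsg

theorem sgn_mul_self (z : Fin 24 → ℤ) (i : Fin 24) : sgn z i * sgn z i = 1 := by
  unfold sgn; split_ifs <;> norm_num

theorem main_of (hOrth : StmtOrth) (hClass : StmtClass) (hFrame : StmtFrame) (hPars : StmtPars)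
    (hCoord : StmtCoord) (hL4 : StmtL4) (hCode : StmtCode) (hDim : StmtDim)
    (hShapeOdd : StmtShapeOdd) (hShape : StmtShape) (hOct : StmtOct) (hT2 : StmtT2)
    (hT3 : StmtT3) (hCnt : StmtCnt) (hSub : StmtSub) (hSup : StmtSup)
    (B : Matrix (Fin 24) (Fin 24) ℤ) (hsymm : B.IsSymm)
    (hpos : ∀ x : Fin 24 → ℤ, x ≠ 0 → 0 < x ⬝ᵥ (B *ᵥ x))
    (heven : ∀ x : Fin 24 → ℤ, (2 : ℤ) ∣ x ⬝ᵥ (B *ᵥ x))
    (h2 : ∀ x : Fin 24 → ℤ, x ⬝ᵥ (B *ᵥ x) ≠ 2)
    (h4 : {x : Fin 24 → ℤ | x ⬝ᵥ (B *ᵥ x) = 4}.ncard = 196560)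
    (h6 : {x : Fin 24 → ℤ | x ⬝ᵥ (B *ᵥ x) = 6}.ncard = 16773120)
    (h8 : {x : Fin 24 → ℤ | x ⬝ᵥ (B *ᵥ x) = 8}.ncard = 398034000) :
    ∃ f : (Fin 24 → ℤ) ≃+ Cfsg.leechLattice, ∀ x : Fin 24 → ℤ,
      Cfsg.sqNorm ((f x : Cfsg.leechLattice) : Cfsg.GolayPt → ℤ) = 8 * (x ⬝ᵥ (B *ᵥ x)) := by
  have hB : LatHyp B := ⟨hsymm, hpos, heven, h2⟩
  obtain ⟨s, hs48, hs8, hscong⟩ := hClass hOrth B hB h4 h6 h8
  obtain ⟨E, hE, hErows⟩ := hFrame hOrth B hB s hs48 hs8 hscong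
  have hΛ : IsCFL ((E * B).mulVecLin.toAddMonoidHom.range) := hCoord hPars B hB h4 E hE hErows
  obtain ⟨Λ, hΛdef⟩ : ∃ Λ : AddSubgroup (Fin 24 → ℤ), Λ = (E * B).mulVecLin.toAddMonoidHom.range :=
    ⟨_, rfl⟩
  rw [← hΛdef] at hΛ
  have hmemΛ : ∀ x : Fin 24 → ℤ, x ∈ Λ ↔ ∃ a : Fin 24 → ℤ, (E * B) *ᵥ a = x := by
    intro x
    rw [hΛdef, AddMonoidHom.mem_range]
    rfl
  obtain ⟨C, hC, hC4, hCno4⟩ := hCode hL4 Λ hΛ
  have hshape0 : Shape0 := hShape hL4 hCode hShapeOdd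
  have ht20 : T20 := hT2 hL4 hCode hOct
  obtain ⟨hcard, z, hzΛ, hzT3⟩ := hCnt hshape0 ht20 hT3 Λ hΛ C hC
  have hdim : Module.finrank (ZMod 2) C = 12 := by
    have h1 := hDim C hC4
    have h2' : Nat.card C = 2 ^ Module.finrank (ZMod 2) C := by
      rw [Module.natCard_eq_pow_finrank (K := ZMod 2) (V := C)]
      simp
    by_contra hne
    have h3 : Module.finrank (ZMod 2) C ≤ 11 := by omega
    have h5 : Nat.card C ≤ 2 ^ 11 := by
      rw [h2']; exact Nat.pow_le_pow_right (by norm_num) h3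
    omega
  obtain ⟨e, he⟩ := Cfsg.Agent.H9.GU.golay_unique C hdim hC4 hCno4
  -- the coordinate change
  have hmem : ∀ a : Fin 24 → ℤ,
      (fun p : GolayPt => sgn z (e.symm p) * ((E * B) *ᵥ a) (e.symm p)) ∈ leechLattice := by
    intro a
    apply AddSubgroup.subset_closure
    apply hSub Λ hΛ C hC e he z hzΛ hzT3
    have h1 : (fun i => sgn z i * (sgn z (e.symm (e i)) * ((E * B) *ᵥ a) (e.symm (e i))))
        = (E * B) *ᵥ a := by
      funext i
      rw [Equiv.symm_apply_apply, ← mul_assoc, sgn_mul_self, one_mul]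
    rw [h1]
    exact (hmemΛ _).mpr ⟨a, rfl⟩
  have hnorm : ∀ a : Fin 24 → ℤ,
      sqNorm (fun p : GolayPt => sgn z (e.symm p) * ((E * B) *ᵥ a) (e.symm p))
        = 8 * (a ⬝ᵥ (B *ᵥ a)) := by
    intro a
    unfold sqNorm
    rw [← hPars B E hsymm hE a a]
    rw [← Equiv.sum_comp e]
    refine Finset.sum_congr rfl fun i _ => ?_
    show (sgn z (e.symm (e i)) * ((E * B) *ᵥ a) (e.symm (e i))) ^ 2 = _
    rw [Equiv.symm_apply_apply, mul_pow, sq (sgn z i), sgn_mul_self, one_mul, sq]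
  let g : (Fin 24 → ℤ) →+ leechLattice :=
    { toFun := fun a => ⟨_, hmem a⟩
      map_zero' := by
        apply Subtype.ext
        funext p
        simp
      map_add' := by
        intro a b
        apply Subtype.ext
        funext p
        simp [Matrix.mulVec_add, mul_add] }
  have hg : ∀ a : Fin 24 → ℤ, ((g a : leechLattice) : GolayPt → ℤ)
      = fun p : GolayPt => sgn z (e.symm p) * ((E * B) *ᵥ a) (e.symm p) := fun a => rfl
  have hinj : Function.Injective g := by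
    rw [injective_iff_map_eq_zero]
    intro a ha
    by_contra hne
    have h1 := hpos a hne
    have h3 := hnorm a
    rw [← hg a, ha] at h3
    have h5 : sqNorm ((0 : leechLattice) : GolayPt → ℤ) = 0 := by
      unfold sqNorm; simp
    rw [h5] at h3
    omega
  have hsurj : Function.Surjective g := by
    intro y
    have hy : (y : GolayPt → ℤ) ∈ leechSet := by
      rw [← coe_leechLattice]; exact y.2
    have h1 := hSup hL4 Λ hΛ C hC e he z hzΛ hzT3 y hy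
    obtain ⟨a, ha⟩ := (hmemΛ _).mp h1
    refine ⟨a, ?_⟩
    apply Subtype.ext
    rw [hg a, ha]
    funext p
    show sgn z (e.symm p) * (sgn z (e.symm p) * (y : GolayPt → ℤ) (e (e.symm p))) = _
    rw [Equiv.apply_symm_apply, ← mul_assoc, sgn_mul_self, one_mul]
  refine ⟨AddEquiv.ofBijective g ⟨hinj, hsurj⟩, fun x => ?_⟩
  show sqNorm ((g x : leechLattice) : GolayPt → ℤ) = _
  rw [hg x, hnorm x]

end Cfsg.Agent.H93.Conway
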