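import Mathlib
import Cfsg.Agent.H93.Leech
import Cfsg.Agent.H93.GolayRigid
import Cfsg.Agent.H93.GolayRigidData

/-!
Rigidity of the length-24 code: the chain of eleven levels, and the statement for linear
automorphisms of the code.
-/

set_option autoImplicit false
set_option maxRecDepth 100000

namespace Cfsg.Agent.H93

open Cfsg Cfsg.Agent.H9 Cfsg.Agent.H33
open scoped Pointwise

local notation "SC" => supports (golayCode : Set (GolayPt → ZMod 2))

/-- An additive map on the code words, as sets of points, that fixes the full set and preserves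
sizes up to complement agrees up to complement with a permutation of the automorphism group. -/
theorem golay_rigid (Fm : ℕ → Finset GolayPt)
    (hSC : ∀ m, isGolay m = true → Fm m ∈ SC)
    (hL : ∀ a b, isGolay a = true → isGolay b = true → Fm (a ^^^ b) = symmDiff (Fm a) (Fm b))
    (h1 : Fm 0xffffff = Finset.univ)
    (hT : ∀ m, isGolay m = true → ccF (Fm m) = ccF (fs m)) :
    ∃ σ ∈ M24, ∀ m, isGolay m = true → Eqc (Fm m) (σ • fs m) := by
  have h0 : ∀ m ∈ ([] : List ℕ), GoodAt Fm 1 m := by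
    intro m hm
    exact absurd hm (List.not_mem_nil)
  obtain ⟨σ1, hσ1, g1⟩ := level_step Fm hSC hL hT 1 M24.one_mem [] h0 rgW1
    (by decide +kernel) (by decide +kernel) rgSel1 rgTl1 rg_tl1 rg_class1
  obtain ⟨σ2, hσ2, g2⟩ := level_step Fm hSC hL hT σ1 hσ1 [rgW1] g1 rgW2
    (by decide +kernel) (by decide +kernel) rgSel2 rgTl2 rg_tl2 rg_class2
  obtain ⟨σ3, hσ3, g3⟩ := level_step Fm hSC hL hT σ2 hσ2 [rgW2, rgW1] g2 rgW3
    (by decide +kernel) (by decide +kernel) rgSel3 rgTl3 rg_tl3 rg_class3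
  obtain ⟨σ4, hσ4, g4⟩ := level_step Fm hSC hL hT σ3 hσ3 [rgW3, rgW2, rgW1] g3 rgW4
    (by decide +kernel) (by decide +kernel) rgSel4 rgTl4 rg_tl4 rg_class4
  obtain ⟨σ5, hσ5, g5⟩ := level_step Fm hSC hL hT σ4 hσ4 [rgW4, rgW3, rgW2, rgW1] g4 rgW5
    (by decide +kernel) (by decide +kernel) rgSel5 rgTl5 rg_tl5 rg_class5
  obtain ⟨σ6, hσ6, g6⟩ := level_step Fm hSC hL hT σ5 hσ5 [rgW5, rgW4, rgW3, rgW2, rgW1] g5 rgW6
    (by decide +kernel) (by decide +kernel) rgSel6 rgTl6 rg_tl6 rg_class6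
  obtain ⟨σ7, hσ7, g7⟩ := level_step Fm hSC hL hT σ6 hσ6 [rgW6, rgW5, rgW4, rgW3, rgW2, rgW1] g6 rgW7
    (by decide +kernel) (by decide +kernel) rgSel7 rgTl7 rg_tl7 rg_class7
  obtain ⟨σ8, hσ8, g8⟩ := level_step Fm hSC hL hT σ7 hσ7 [rgW7, rgW6, rgW5, rgW4, rgW3, rgW2, rgW1] g7 rgW8
    (by decide +kernel) (by decide +kernel) rgSel8 rgTl8 rg_tl8 rg_class8
  obtain ⟨σ9, hσ9, g9⟩ := level_step Fm hSC hL hT σ8 hσ8 [rgW8, rgW7, rgW6, rgW5, rgW4, rgW3, rgW2, rgW1] g8 rgW9
    (by decide +kernel) (by decide +kernel) rgSel9 rgTl9 rg_tl9 rg_class9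
  obtain ⟨σ10, hσ10, g10⟩ := level_step Fm hSC hL hT σ9 hσ9 [rgW9, rgW8, rgW7, rgW6, rgW5, rgW4, rgW3, rgW2, rgW1] g9 rgW10
    (by decide +kernel) (by decide +kernel) rgSel10 rgTl10 rg_tl10 rg_class10
  obtain ⟨σ11, hσ11, g11⟩ := level_step Fm hSC hL hT σ10 hσ10 [rgW10, rgW9, rgW8, rgW7, rgW6, rgW5, rgW4, rgW3, rgW2, rgW1] g10 rgW11
    (by decide +kernel) (by decide +kernel) rgSel11 rgTl11 rg_tl11 rg_class11
  refine ⟨σ11, hσ11, fun m hm => ?_⟩
  have hBL : ∀ b ∈ rgBL, GoodAt Fm σ11 b := by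
    intro b hb
    unfold rgBL at hb
    rcases List.mem_cons.mp hb with rfl | hb
    · refine ⟨isGolay_full, Or.inl ?_⟩
      have e : fs 0xffffff = Finset.univ := fs_full
      rw [h1, e]
      ext p
      simp only [Finset.mem_univ, true_iff]
      rw [← Finset.inv_smul_mem_iff]
      exact Finset.mem_univ _
    · exact g11 b hb
  obtain ⟨k, hk, rfl⟩ := isGolay_iff.mp hm
  have hd : comb rgBL (rgDcd rgDL (cw k)) = cw k := by
    have h := (allB_iff _ _).mp rg_decode k hk
    rw [cwN_eq] at h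
    exact Nat.eq_of_beq_eq_true h
  have hg := good_comb Fm hL σ11 rgBL hBL (rgDcd rgDL (cw k))
  rw [hd] at hg
  exact hg.2

theorem support₂_add' (u v : GolayPt → ZMod 2) :
    support₂ (u + v) = symmDiff (support₂ u) (support₂ v) := by
  ext p
  simp only [support₂, Finset.mem_symmDiff, Finset.mem_filter, Finset.mem_univ, true_and,
    Pi.add_apply]
  generalize u p = a
  generalize v p = b
  revert a b
  decide

theorem support₂_add_one (u : GolayPt → ZMod 2) :
    support₂ (u + fun _ => (1 : ZMod 2)) = (support₂ u)ᶜ := by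
  ext p
  simp only [support₂, Finset.mem_compl, Finset.mem_filter, Finset.mem_univ, true_and,
    Pi.add_apply]
  generalize u p = a
  revert a
  decide

theorem support₂_perm (σ : Equiv.Perm GolayPt) (u : GolayPt → ZMod 2) :
    support₂ (fun p => u (σ.symm p)) = σ • support₂ u :=
  support₂_permLin σ u

theorem eq_of_support₂_eq {u v : GolayPt → ZMod 2} (h : support₂ u = support₂ v) : u = v := by
  funext p
  apply zmod2_eq_of_ne_zero_iff
  have h2 : p ∈ support₂ u ↔ p ∈ support₂ v := by rw [h]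
  simpa [support₂] using h2

/-- A linear automorphism of the length-24 code that fixes the all-ones word and maps every
word into its orbit under the automorphism group, up to adding the all-ones word, agrees with a
single element of the automorphism group up to adding the all-ones word. -/
theorem golay_lin_rigid (x : ↥golayCode ≃ₗ[ZMod 2] ↥golayCode)
    (h1 : ∀ e : ↥golayCode, (e : GolayPt → ZMod 2) = (fun _ => (1 : ZMod 2)) → x e = e)
    (horb : ∀ c : ↥golayCode, ∃ σ ∈ M24,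
      ((x c : ↥golayCode) : GolayPt → ZMod 2) = (fun p => (c : GolayPt → ZMod 2) (σ.symm p)) ∨
      ((x c : ↥golayCode) : GolayPt → ZMod 2)
        = (fun p => (c : GolayPt → ZMod 2) (σ.symm p)) + fun _ => (1 : ZMod 2)) :
    ∃ σ ∈ M24, ∀ c : ↥golayCode,
      ((x c : ↥golayCode) : GolayPt → ZMod 2) = (fun p => (c : GolayPt → ZMod 2) (σ.symm p)) ∨
      ((x c : ↥golayCode) : GolayPt → ZMod 2)
        = (fun p => (c : GolayPt → ZMod 2) (σ.symm p)) + fun _ => (1 : ZMod 2) := by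
  obtain ⟨cwE, hcwE⟩ : ∃ cwE : ℕ → ↥golayCode, ∀ k, ((cwE k : ↥golayCode) : GolayPt → ZMod 2)
      = dec (cw k) := ⟨fun k => ⟨dec (cw k), dec_cw_mem k⟩, fun _ => rfl⟩
  obtain ⟨Fm, hFm⟩ : ∃ Fm : ℕ → Finset GolayPt, ∀ m, Fm m
      = support₂ ((x (cwE (m >>> 12)) : ↥golayCode) : GolayPt → ZMod 2) := ⟨_, fun _ => rfl⟩
  have hcw : ∀ m, isGolay m = true → cw (m >>> 12) = m := by
    intro m hm
    rw [← cwN_eq]
    exact Nat.eq_of_beq_eq_true hm
  have hadd : ∀ j k, cwE (j ^^^ k) = cwE j + cwE k := by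
    intro j k
    apply Subtype.ext
    rw [Submodule.coe_add, hcwE, hcwE, hcwE, cw_xor, dec_xor]
  have hSC : ∀ m, isGolay m = true → Fm m ∈ SC := by
    intro m _
    rw [hFm]
    exact ⟨_, (x (cwE (m >>> 12))).2, rfl⟩
  have hL : ∀ a b, isGolay a = true → isGolay b = true →
      Fm (a ^^^ b) = symmDiff (Fm a) (Fm b) := by
    intro a b _ _
    rw [hFm, hFm, hFm, Nat.shiftRight_xor_distrib, hadd, map_add, Submodule.coe_add,
      support₂_add']
  have h1' : Fm 0xffffff = Finset.univ := by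
    rw [hFm]
    have e0 : 0xffffff >>> 12 = 4095 := by decide
    have e1 : cw 4095 = 0xffffff := by rw [← cwN_eq]; decide +kernel
    have e2 : ((cwE 4095 : ↥golayCode) : GolayPt → ZMod 2) = fun _ => (1 : ZMod 2) := by
      rw [hcwE, e1, ← one_eq_dec]; rfl
    rw [e0, h1 _ e2, hcwE, e1, support₂_dec]
    exact fs_full
  have hT : ∀ m, isGolay m = true → ccF (Fm m) = ccF (fs m) := by
    intro m hm
    obtain ⟨σ, -, h | h⟩ := horb (cwE (m >>> 12))
    · rw [hFm, h, support₂_perm, hcwE, hcw m hm, support₂_dec, ccF_smul]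
    · rw [hFm, h, support₂_add_one, support₂_perm, hcwE, hcw m hm, support₂_dec, ccF_compl,
        ccF_smul]
  obtain ⟨σ, hσ, hgood⟩ := golay_rigid Fm hSC hL h1' hT
  refine ⟨σ, hσ, fun c => ?_⟩
  obtain ⟨k, hk, hck⟩ := (mem_golayCode_iff (c : GolayPt → ZMod 2)).mp c.2
  have hm : isGolay (cw k) = true := isGolay_iff.mpr ⟨k, hk, rfl⟩
  have hc : cwE (cw k >>> 12) = c := by
    apply Subtype.ext
    rw [hcwE, hcw _ hm, hck]
  have hs : fs (cw k) = support₂ (c : GolayPt → ZMod 2) := by rw [hck, support₂_dec]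
  rcases hgood (cw k) hm with h | h
  · left
    apply eq_of_support₂_eq
    rw [support₂_perm, ← hs, ← h, hFm, hc]
  · right
    apply eq_of_support₂_eq
    rw [support₂_add_one, support₂_perm, ← hs, ← h, hFm, hc]

end Cfsg.Agent.H93
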