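import Mathlib

/-!
Even positive definite lattices of rank 24 without vectors of norm 2, given by a Gram matrix: the
classes modulo 2 of the vectors of norm at most 8.  If the numbers of vectors of norm 4, 6, 8 are
196560, 16773120, 398034000, then the vectors of norm 8 in a class modulo 2 number exactly 48.
-/

set_option autoImplicit false

namespace Cfsg.Agent.H93.Lat

open Matrix

/-- The bilinear form of a Gram matrix. -/
def bq (B : Matrix (Fin 24) (Fin 24) ℤ) (x y : Fin 24 → ℤ) : ℤ := x ⬝ᵥ (B *ᵥ y)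

section

variable (B : Matrix (Fin 24) (Fin 24) ℤ)

theorem bq_add_left (x y z : Fin 24 → ℤ) : bq B (x + y) z = bq B x z + bq B y z := by
  unfold bq; rw [add_dotProduct]

theorem bq_add_right (x y z : Fin 24 → ℤ) : bq B x (y + z) = bq B x y + bq B x z := by
  unfold bq; rw [Matrix.mulVec_add, dotProduct_add]

theorem bq_neg_left (x y : Fin 24 → ℤ) : bq B (-x) y = -bq B x y := by
  unfold bq; rw [neg_dotProduct]

theorem bq_neg_right (x y : Fin 24 → ℤ) : bq B x (-y) = -bq B x y := by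
  unfold bq; rw [Matrix.mulVec_neg, dotProduct_neg]

theorem bq_zero_right (x : Fin 24 → ℤ) : bq B x 0 = 0 := by
  unfold bq; simp

theorem bq_comm (hsymm : B.IsSymm) (x y : Fin 24 → ℤ) : bq B x y = bq B y x := by
  unfold bq
  rw [Matrix.dotProduct_mulVec, ← Matrix.mulVec_transpose, hsymm.eq, dotProduct_comm]

theorem bq_sum_right (x : Fin 24 → ℤ) {ι : Type*} (s : Finset ι) (g : ι → ℤ)
    (v : ι → Fin 24 → ℤ) : bq B x (∑ i ∈ s, g i • v i) = ∑ i ∈ s, g i * bq B x (v i) := by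
  unfold bq
  rw [Matrix.mulVec_sum, dotProduct_sum]
  apply Finset.sum_congr rfl
  intro i _
  rw [Matrix.mulVec_smul, dotProduct_smul, smul_eq_mul]

theorem q_add (hsymm : B.IsSymm) (x y : Fin 24 → ℤ) :
    bq B (x + y) (x + y) = bq B x x + 2 * bq B x y + bq B y y := by
  rw [bq_add_left, bq_add_right, bq_add_right, bq_comm B hsymm y x]; ring

theorem q_sub (hsymm : B.IsSymm) (x y : Fin 24 → ℤ) :
    bq B (x - y) (x - y) = bq B x x - 2 * bq B x y + bq B y y := by
  rw [sub_eq_add_neg, q_add B hsymm, bq_neg_right, bq_neg_left, bq_neg_right]; ring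

theorem q_two (hsymm : B.IsSymm) (z : Fin 24 → ℤ) :
    bq B ((2 : ℕ) • z) ((2 : ℕ) • z) = 4 * bq B z z := by
  rw [two_smul, q_add B hsymm]; ring

theorem q_neg (x : Fin 24 → ℤ) : bq B (-x) (-x) = bq B x x := by
  rw [bq_neg_left, bq_neg_right, neg_neg]

theorem q_min (hpos : ∀ x : Fin 24 → ℤ, x ≠ 0 → 0 < bq B x x)
    (heven : ∀ x : Fin 24 → ℤ, (2 : ℤ) ∣ bq B x x) (h2 : ∀ x : Fin 24 → ℤ, bq B x x ≠ 2)
    {x : Fin 24 → ℤ} (hx : x ≠ 0) : 4 ≤ bq B x x := by
  have h1 := hpos x hx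
  have h3 := heven x
  have h4 := h2 x
  omega

/-- Two vectors of norm at most 8 that are congruent modulo 2 are equal, opposite, or orthogonal
of norm 8. -/
theorem short_congr (hsymm : B.IsSymm) (hpos : ∀ x : Fin 24 → ℤ, x ≠ 0 → 0 < bq B x x)
    (heven : ∀ x : Fin 24 → ℤ, (2 : ℤ) ∣ bq B x x) (h2 : ∀ x : Fin 24 → ℤ, bq B x x ≠ 2)
    {x y : Fin 24 → ℤ} (hx : bq B x x ≤ 8) (hy : bq B y y ≤ 8) (hc : ∀ i, (2 : ℤ) ∣ (x - y) i) :
    y = x ∨ y = -x ∨ (bq B x x = 8 ∧ bq B y y = 8 ∧ bq B x y = 0) := by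
  choose z hz using hc
  have hvw : x - y = (2 : ℕ) • z := by
    funext i; rw [hz i]; simp
  have hvw' : x + y = (2 : ℕ) • (z + y) := by
    have : x = (2 : ℕ) • z + y := by rw [← hvw]; abel
    rw [this]; simp only [smul_add, two_smul]; abel
  have e1 := q_sub B hsymm x y
  have e2 := q_add B hsymm x y
  rw [hvw, q_two B hsymm] at e1
  rw [hvw', q_two B hsymm] at e2
  by_cases h1 : z = 0
  · left
    have : x - y = 0 := by rw [hvw, h1]; simp
    exact (sub_eq_zero.mp this).symm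
  · by_cases h3 : z + y = 0
    · right; left
      have : x + y = 0 := by rw [hvw', h3]; simp
      rw [eq_neg_iff_add_eq_zero, add_comm]; exact this
    · right; right
      have m1 := q_min B hpos heven h2 h1
      have m2 := q_min B hpos heven h2 h3
      refine ⟨by linarith, by linarith, by linarith⟩

/-- Pairwise orthogonal nonzero vectors number at most 24. -/
theorem card_le_of_orth (hpos : ∀ x : Fin 24 → ℤ, x ≠ 0 → 0 < bq B x x)
    (F : Finset (Fin 24 → ℤ)) (h0 : ∀ v ∈ F, v ≠ 0)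
    (horth : ∀ v ∈ F, ∀ w ∈ F, v ≠ w → bq B v w = 0) : F.card ≤ 24 := by
  classical
  have hli : LinearIndependent ℤ (fun v : F => (v.1 : Fin 24 → ℤ)) := by
    rw [linearIndependent_iff']
    intro s g hsum k hk
    have h1 := congrArg (fun u => bq B k.1 u) hsum
    simp only [bq_zero_right] at h1
    rw [bq_sum_right, Finset.sum_eq_single k] at h1
    · have h2 := hpos k.1 (h0 k.1 k.2)
      rcases mul_eq_zero.mp h1 with h | h
      · exact h
      · omega
    · intro j _ hjk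
      rw [horth k.1 k.2 j.1 j.2 (fun h => hjk (Subtype.ext h.symm)), mul_zero]
    · intro h; exact absurd hk h
  have h := hli.fintype_card_le_finrank
  rw [Module.finrank_fin_fun, Fintype.card_coe] at h
  exact h

open Classical in
theorem card_le_of_orth_or_neg (hpos : ∀ x : Fin 24 → ℤ, x ≠ 0 → 0 < bq B x x)
    (F : Finset (Fin 24 → ℤ)) (h0 : ∀ v ∈ F, v ≠ 0)
    (h : ∀ v ∈ F, ∀ w ∈ F, w = v ∨ w = -v ∨ bq B v w = 0) : F.card ≤ 48 := by
  obtain ⟨pr, hpr⟩ : ∃ pr : (Fin 24 → ℤ) → Finset (Fin 24 → ℤ), ∀ v, pr v = {v, -v} :=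
    ⟨fun v => {v, -v}, fun _ => rfl⟩
  have h1 : F.card ≤ 2 * (F.image pr).card := by
    apply Finset.card_le_mul_card_image
    intro p hp
    obtain ⟨v, hv, rfl⟩ := Finset.mem_image.mp hp
    calc _ ≤ ({v, -v} : Finset (Fin 24 → ℤ)).card := Finset.card_le_card (by
            intro x hx
            obtain ⟨hxF, hxp⟩ := Finset.mem_filter.mp hx
            have h2 : x ∈ pr x := by rw [hpr]; simp
            rw [hxp, hpr] at h2
            exact h2)
      _ ≤ 2 := Finset.card_le_two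
  have hrep : ∀ p ∈ F.image pr, ∃ v, v ∈ F ∧ pr v = p := fun p hp => by
    obtain ⟨v, hv, hvp⟩ := Finset.mem_image.mp hp
    exact ⟨v, hv, hvp⟩
  choose! r hrF hrp using hrep
  have hinj : Set.InjOn r (F.image pr : Finset _) := by
    intro p hp q hq hpq
    rw [← hrp p hp, ← hrp q hq, hpq]
  have h2 : (F.image pr).card ≤ 24 := by
    have h3 : ((F.image pr).image r).card ≤ 24 := by
      apply card_le_of_orth B hpos
      · intro v hv
        obtain ⟨p, hp, rfl⟩ := Finset.mem_image.mp hv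
        exact h0 _ (hrF p hp)
      · intro v hv w hw hvw
        obtain ⟨p, hp, rfl⟩ := Finset.mem_image.mp hv
        obtain ⟨q, hq, rfl⟩ := Finset.mem_image.mp hw
        rcases h (r p) (hrF p hp) (r q) (hrF q hq) with h' | h' | h'
        · exact absurd h'.symm hvw
        · exfalso
          apply hvw
          have hpq : p = q := by
            rw [← hrp p hp, ← hrp q hq, hpr, hpr, h', neg_neg, Finset.pair_comm]
          rw [hpq]
        · exact h'
    rwa [Finset.card_image_of_injOn hinj] at h3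
  omega

end

/-- The class of an integer vector modulo 2. -/
def cl2 (x : Fin 24 → ℤ) : Fin 24 → ZMod 2 := fun i => ((x i : ℤ) : ZMod 2)

theorem cl2_eq_iff {x y : Fin 24 → ℤ} : cl2 x = cl2 y ↔ ∀ i, (2 : ℤ) ∣ (x - y) i := by
  constructor
  · intro h i
    have := congrFun h i
    unfold cl2 at this
    rw [ZMod.intCast_eq_intCast_iff_dvd_sub] at this
    have h2 : (x - y) i = -(y i - x i) := by simp
    rw [h2]
    exact (dvd_neg).mpr (by exact_mod_cast this)
  · intro h
    funext i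
    unfold cl2
    rw [ZMod.intCast_eq_intCast_iff_dvd_sub]
    have h2 : y i - x i = -((x - y) i) := by simp
    rw [h2]
    exact_mod_cast (dvd_neg).mpr (h i)

theorem card_words2 : Fintype.card (Fin 24 → ZMod 2) = 2 ^ 24 := by
  simp

section Count

open Classical

variable (B : Matrix (Fin 24) (Fin 24) ℤ)

theorem fiber_small (hsymm : B.IsSymm) (hpos : ∀ x : Fin 24 → ℤ, x ≠ 0 → 0 < bq B x x)
    (heven : ∀ x : Fin 24 → ℤ, (2 : ℤ) ∣ bq B x x) (h2 : ∀ x : Fin 24 → ℤ, bq B x x ≠ 2)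
    {N : ℤ} (hN : N < 8) (V : Finset (Fin 24 → ℤ)) (hV : ∀ x, x ∈ V ↔ bq B x x = N)
    (a : Fin 24 → ℤ) (ha : a ∈ V) : (V.filter (fun x => cl2 x = cl2 a)).card ≤ 2 := by
  have han := (hV a).mp ha
  calc _ ≤ ({a, -a} : Finset (Fin 24 → ℤ)).card := Finset.card_le_card (by
          intro x hx
          obtain ⟨hxV, hxc⟩ := Finset.mem_filter.mp hx
          have hxn := (hV x).mp hxV
          have hc := cl2_eq_iff.mp hxc.symm
          rcases short_congr B hsymm hpos heven h2 (by rw [han]; exact hN.le)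
            (by rw [hxn]; exact hN.le) hc with h | h | h
          · simp [h]
          · simp [h]
          · exfalso; rw [han] at h; omega)
    _ ≤ 2 := Finset.card_le_two

theorem fiber_eight (hsymm : B.IsSymm) (hpos : ∀ x : Fin 24 → ℤ, x ≠ 0 → 0 < bq B x x)
    (heven : ∀ x : Fin 24 → ℤ, (2 : ℤ) ∣ bq B x x) (h2 : ∀ x : Fin 24 → ℤ, bq B x x ≠ 2)
    (V : Finset (Fin 24 → ℤ)) (hV : ∀ x, x ∈ V ↔ bq B x x = 8)
    (a : Fin 24 → ℤ) : (V.filter (fun x => cl2 x = cl2 a)).card ≤ 48 := by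
  apply card_le_of_orth_or_neg B hpos
  · intro v hv h0
    have hvn := (hV v).mp (Finset.mem_filter.mp hv).1
    rw [h0, bq_zero_right] at hvn
    norm_num at hvn
  · intro v hv w hw
    obtain ⟨hvV, hvc⟩ := Finset.mem_filter.mp hv
    obtain ⟨hwV, hwc⟩ := Finset.mem_filter.mp hw
    have hvn := (hV v).mp hvV
    have hwn := (hV w).mp hwV
    rcases short_congr B hsymm hpos heven h2 (by rw [hvn]) (by rw [hwn])
      (cl2_eq_iff.mp (hvc.trans hwc.symm)) with h | h | h
    · exact Or.inl h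
    · exact Or.inr (Or.inl h)
    · exact Or.inr (Or.inr h.2.2)

theorem image_disjoint (hsymm : B.IsSymm) (hpos : ∀ x : Fin 24 → ℤ, x ≠ 0 → 0 < bq B x x)
    (heven : ∀ x : Fin 24 → ℤ, (2 : ℤ) ∣ bq B x x) (h2 : ∀ x : Fin 24 → ℤ, bq B x x ≠ 2)
    {N N' : ℤ} (hN : N ≤ 8) (hN' : N' ≤ 8) (hne : N ≠ N') (V V' : Finset (Fin 24 → ℤ))
    (hV : ∀ x, x ∈ V ↔ bq B x x = N) (hV' : ∀ x, x ∈ V' ↔ bq B x x = N') :
    Disjoint (V.image cl2) (V'.image cl2) := by
  rw [Finset.disjoint_left]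
  intro q hq hq'
  obtain ⟨x, hx, rfl⟩ := Finset.mem_image.mp hq
  obtain ⟨y, hy, hxy⟩ := Finset.mem_image.mp hq'
  have hxn := (hV x).mp hx
  have hyn := (hV' y).mp hy
  rcases short_congr B hsymm hpos heven h2 (by rw [hxn]; exact hN) (by rw [hyn]; exact hN')
    (cl2_eq_iff.mp hxy.symm) with h | h | h
  · rw [h, hxn] at hyn; exact hne hyn
  · rw [h, q_neg, hxn] at hyn; exact hne hyn
  · rw [hxn, hyn] at h; exact hne (h.1.trans h.2.1.symm)

/-- In an even positive definite lattice of rank 24 without vectors of norm 2 and with the vector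
counts of the Leech lattice, the vectors of norm 8 in a class modulo 2 number exactly 48. -/
theorem cross_card (hsymm : B.IsSymm) (hpos : ∀ x : Fin 24 → ℤ, x ≠ 0 → 0 < bq B x x)
    (heven : ∀ x : Fin 24 → ℤ, (2 : ℤ) ∣ bq B x x) (h2 : ∀ x : Fin 24 → ℤ, bq B x x ≠ 2)
    (h4 : {x : Fin 24 → ℤ | bq B x x = 4}.ncard = 196560)
    (h6 : {x : Fin 24 → ℤ | bq B x x = 6}.ncard = 16773120)
    (h8 : {x : Fin 24 → ℤ | bq B x x = 8}.ncard = 398034000)
    (x : Fin 24 → ℤ) (hx : bq B x x = 8) :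
    {y : Fin 24 → ℤ | bq B y y = 8 ∧ ∀ i, (2 : ℤ) ∣ (x - y) i}.ncard = 48 := by
  have f4 : {x : Fin 24 → ℤ | bq B x x = 4}.Finite :=
    Set.finite_of_ncard_ne_zero (by rw [h4]; norm_num)
  have f6 : {x : Fin 24 → ℤ | bq B x x = 6}.Finite :=
    Set.finite_of_ncard_ne_zero (by rw [h6]; norm_num)
  have f8 : {x : Fin 24 → ℤ | bq B x x = 8}.Finite :=
    Set.finite_of_ncard_ne_zero (by rw [h8]; norm_num)
  obtain ⟨V4, hV4⟩ : ∃ V : Finset (Fin 24 → ℤ), V = f4.toFinset := ⟨_, rfl⟩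
  obtain ⟨V6, hV6⟩ : ∃ V : Finset (Fin 24 → ℤ), V = f6.toFinset := ⟨_, rfl⟩
  obtain ⟨V8, hV8⟩ : ∃ V : Finset (Fin 24 → ℤ), V = f8.toFinset := ⟨_, rfl⟩
  have m4 : ∀ x, x ∈ V4 ↔ bq B x x = 4 := fun x => by rw [hV4]; simp
  have m6 : ∀ x, x ∈ V6 ↔ bq B x x = 6 := fun x => by rw [hV6]; simp
  have m8 : ∀ x, x ∈ V8 ↔ bq B x x = 8 := fun x => by rw [hV8]; simp
  have m0 : ∀ x, x ∈ ({0} : Finset (Fin 24 → ℤ)) ↔ bq B x x = 0 := by
    intro x
    rw [Finset.mem_singleton]
    constructor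
    · rintro rfl; exact bq_zero_right B 0
    · intro h
      by_contra hne
      have := hpos x hne
      omega
  have c4 : V4.card = 196560 := by rw [hV4, ← Set.ncard_eq_toFinset_card _ f4, h4]
  have c6 : V6.card = 16773120 := by rw [hV6, ← Set.ncard_eq_toFinset_card _ f6, h6]
  have c8 : V8.card = 398034000 := by rw [hV8, ← Set.ncard_eq_toFinset_card _ f8, h8]
  -- the images
  have d04 := image_disjoint B hsymm hpos heven h2 (by norm_num) (by norm_num) (by norm_num)
    ({0} : Finset (Fin 24 → ℤ)) V4 m0 m4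
  have d06 := image_disjoint B hsymm hpos heven h2 (by norm_num) (by norm_num) (by norm_num)
    ({0} : Finset (Fin 24 → ℤ)) V6 m0 m6
  have d08 := image_disjoint B hsymm hpos heven h2 (by norm_num) (by norm_num) (by norm_num)
    ({0} : Finset (Fin 24 → ℤ)) V8 m0 m8
  have d46 := image_disjoint B hsymm hpos heven h2 (by norm_num) (by norm_num) (by norm_num)
    V4 V6 m4 m6
  have d48 := image_disjoint B hsymm hpos heven h2 (by norm_num) (by norm_num) (by norm_num)
    V4 V8 m4 m8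
  have d68 := image_disjoint B hsymm hpos heven h2 (by norm_num) (by norm_num) (by norm_num)
    V6 V8 m6 m8
  have hU : ((({0} : Finset (Fin 24 → ℤ)).image cl2 ∪ V4.image cl2 ∪ V6.image cl2
      ∪ V8.image cl2).card
      = (({0} : Finset (Fin 24 → ℤ)).image cl2).card + (V4.image cl2).card
        + (V6.image cl2).card + (V8.image cl2).card) := by
    rw [Finset.card_union_of_disjoint, Finset.card_union_of_disjoint,
      Finset.card_union_of_disjoint]
    · exact d04
    · rw [Finset.disjoint_union_left]; exact ⟨d06, d46⟩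
    · rw [Finset.disjoint_union_left, Finset.disjoint_union_left]; exact ⟨⟨d08, d48⟩, d68⟩
  have hle := Finset.card_le_univ ((({0} : Finset (Fin 24 → ℤ)).image cl2 ∪ V4.image cl2
    ∪ V6.image cl2 ∪ V8.image cl2))
  rw [card_words2, hU] at hle
  have h0 : (({0} : Finset (Fin 24 → ℤ)).image cl2).card = 1 := by simp
  have b4 : V4.card ≤ 2 * (V4.image cl2).card :=
    Finset.card_le_mul_card_image _ _ (fun b hb => by
      obtain ⟨a, ha, rfl⟩ := Finset.mem_image.mp hb
      exact fiber_small B hsymm hpos heven h2 (by norm_num) V4 m4 a ha)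
  have b6 : V6.card ≤ 2 * (V6.image cl2).card :=
    Finset.card_le_mul_card_image _ _ (fun b hb => by
      obtain ⟨a, ha, rfl⟩ := Finset.mem_image.mp hb
      exact fiber_small B hsymm hpos heven h2 (by norm_num) V6 m6 a ha)
  have b8 : V8.card ≤ 48 * (V8.image cl2).card :=
    Finset.card_le_mul_card_image _ _ (fun b hb => by
      obtain ⟨a, _, rfl⟩ := Finset.mem_image.mp hb
      exact fiber_eight B hsymm hpos heven h2 V8 m8 a)
  rw [c4] at b4
  rw [c6] at b6
  rw [c8] at b8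
  have hI8 : (V8.image cl2).card = 8292375 := by omega
  -- the class of `x`
  have hxV : x ∈ V8 := (m8 x).mpr hx
  have hset : {y : Fin 24 → ℤ | bq B y y = 8 ∧ ∀ i, (2 : ℤ) ∣ (x - y) i}
      = ↑(V8.filter (fun y => cl2 y = cl2 x)) := by
    ext y
    rw [Set.mem_ofPred_eq, Finset.mem_coe, Finset.mem_filter, m8]
    constructor
    · rintro ⟨hy, hc⟩
      exact ⟨hy, (cl2_eq_iff.mpr hc).symm⟩
    · rintro ⟨hy, hc⟩
      exact ⟨hy, cl2_eq_iff.mp hc.symm⟩
  rw [hset, Set.ncard_coe_finset]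
  have hle8 := fiber_eight B hsymm hpos heven h2 V8 m8 x
  by_contra hne
  have hlt : (V8.filter (fun y => cl2 y = cl2 x)).card < 48 := lt_of_le_of_ne hle8 hne
  have hsum := Finset.card_eq_sum_card_image cl2 V8
  have hlt2 : ∑ b ∈ V8.image cl2, (V8.filter (fun a => cl2 a = b)).card
      < ∑ _b ∈ V8.image cl2, 48 := by
    apply Finset.sum_lt_sum
    · intro b hb
      obtain ⟨a, _, rfl⟩ := Finset.mem_image.mp hb
      exact fiber_eight B hsymm hpos heven h2 V8 m8 a
    · exact ⟨cl2 x, Finset.mem_image_of_mem _ hxV, hlt⟩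
  rw [← hsum, c8, Finset.sum_const, hI8] at hlt2
  norm_num at hlt2

end Count

end Cfsg.Agent.H93.Lat
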