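import Mathlib
import Cfsg.Prelude.Def_Sporadic_a
import Cfsg.Agent.H93.LeechCount

/-!
Counting the vectors of a given square length in the rank-24 lattice `Cfsg.leechLattice` whose
coordinates all lie in a prescribed finite set `R` (a variant of `LeechCount`).
-/

set_option autoImplicit false

namespace Cfsg.Agent.H93

open Cfsg Cfsg.Agent.H9

/-- The allowed coordinate values at each point, restricted to `R`. -/
noncomputable def AfamR (R : Finset ℤ) (m k : ℕ) (i : GolayPt) : Finset ℤ :=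
  (Afam m k i).filter (fun a => a ∈ R)

theorem piFinset_AfamR_subset (R : Finset ℤ) (m k : ℕ) :
    Fintype.piFinset (AfamR R m k) ⊆ Fintype.piFinset (Afam m k) := by
  intro x hx
  rw [Fintype.mem_piFinset] at hx ⊢
  exact fun i => (Finset.mem_filter.mp (hx i)).1

theorem card_piFinset_AfamR (R : Finset ℤ) (m k : ℕ) :
    (Fintype.piFinset (AfamR R m k)).card < BB :=
  lt_of_le_of_lt (Finset.card_le_card (piFinset_AfamR_subset R m k)) (card_piFinset_Afam m k)

/-- The vectors of `SF m k N` with all coordinates in `R`. -/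
noncomputable def SFR (R : Finset ℤ) (m k N : ℕ) : Finset (GolayPt → ℤ) :=
  (SF m k N).filter (fun x => ∀ i, x i ∈ R)

theorem prod_AfamR (R : Finset ℤ) (G : ℕ → ℕ)
    (hG : ∀ r < 4, ∑ a ∈ (AA r).filter (fun a => a ∈ R), BB ^ enc a = G r) (m k : ℕ)
    (hm : m < 2) :
    ∏ i, ∑ a ∈ AfamR R m k i, BB ^ enc a = G m ^ (24 - pcT (cw k)) * G (m + 2) ^ pcT (cw k) := by
  have h1 : ∀ i, ∑ a ∈ AfamR R m k i, BB ^ enc a
      = if (cw k).testBit (gIdx i) = true then G (m + 2) else G m := by
    intro i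
    unfold AfamR Afam
    split_ifs
    · exact hG _ (by omega)
    · exact hG _ (by omega)
  rw [Finset.prod_congr rfl (fun i _ => h1 i), Finset.prod_ite, Finset.prod_const,
    Finset.prod_const]
  have h2 : (Finset.univ.filter (fun i : GolayPt => (cw k).testBit (gIdx i) = true)).card
      = pcT (cw k) := by
    rw [← card_fs']; rfl
  have h3 : (Finset.univ.filter (fun i : GolayPt => ¬ (cw k).testBit (gIdx i) = true)).card
      = 24 - pcT (cw k) := by
    have := Finset.card_filter_add_card_filter_not (s := (Finset.univ : Finset GolayPt))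
      (fun i : GolayPt => (cw k).testBit (gIdx i) = true)
    rw [h2, Finset.card_univ, card_golayPt] at this
    omega
  rw [h2, h3, mul_comm]

theorem card_SFR (R : Finset ℤ) (G : ℕ → ℕ)
    (hG : ∀ r < 4, ∑ a ∈ (AA r).filter (fun a => a ∈ R), BB ^ enc a = G r) (m k N : ℕ)
    (hm : m < 2) (hN : N ≤ 64) :
    (SFR R m k N).card
      = sumDig (G m ^ (24 - pcT (cw k)) * G (m + 2) ^ pcT (cw k)) (N * 256 + 128 + 4 * m) 17 := by
  have h1 : SFR R m k N = (Finset.range 17).biUnion (fun j =>
      (Fintype.piFinset (AfamR R m k)).filter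
        (fun x => ∑ i, enc (x i) = N * 256 + 128 + 4 * m + 8 * j)) := by
    ext x
    simp only [SFR, SF, Finset.mem_filter, Finset.mem_biUnion, Finset.mem_range,
      Fintype.mem_piFinset, AfamR]
    constructor
    · rintro ⟨⟨hx, hn, hs⟩, hR⟩
      have hx' : x ∈ Fintype.piFinset (Afam m k) := Fintype.mem_piFinset.mpr hx
      have hc := code_cast m k hx'
      have hb := sum_bounds x
      refine ⟨((∑ i, x i + 64 - 4 * (m : ℤ)) / 8).toNat, ?_, fun i => ⟨hx i, hR i⟩, ?_⟩
      · omega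
      · omega
    · rintro ⟨j, hj, hx, he⟩
      have hx' : x ∈ Fintype.piFinset (Afam m k) :=
        Fintype.mem_piFinset.mpr (fun i => (hx i).1)
      have hc := code_cast m k hx'
      have hb := sum_bounds x
      refine ⟨⟨fun i => (hx i).1, ?_, ?_⟩, fun i => (hx i).2⟩
      · omega
      · omega
  rw [h1, Finset.card_biUnion, sumDig_eq]
  · apply Finset.sum_congr rfl
    intro j _
    rw [card_filter_code _ _ BB _ (card_piFinset_AfamR R m k), prod_AfamR R G hG m k hm]
  · intro j _ j' _ hjj'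
    rw [Function.onFun, Finset.disjoint_left]
    intro x hx hx'
    simp only [Finset.mem_filter] at hx hx'
    apply hjj'
    omega

/-- The count attached to the parity `m` and a code word of weight `w`, for generating numbers
`G`. -/
def PhiG (G : ℕ → ℕ) (N m w : ℕ) : ℕ :=
  sumDig (G m ^ (24 - w) * G (m + 2) ^ w) (N * 256 + 128 + 4 * m) 17

/-- The total count for generating numbers `G`. -/
def PhiTotG (G : ℕ → ℕ) (N : ℕ) : ℕ :=
  (PhiG G N 0 0 + 759 * PhiG G N 0 8 + 2576 * PhiG G N 0 12 + 759 * PhiG G N 0 16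
      + PhiG G N 0 24)
    + (PhiG G N 1 0 + 759 * PhiG G N 1 8 + 2576 * PhiG G N 1 12 + 759 * PhiG G N 1 16
      + PhiG G N 1 24)

/-- The number of lattice vectors of square length `N ≤ 64` with all coordinates in `R`. -/
theorem ncard_norm_R (R : Finset ℤ) (G : ℕ → ℕ)
    (hG : ∀ r < 4, ∑ a ∈ (AA r).filter (fun a => a ∈ R), BB ^ enc a = G r) (N : ℕ)
    (hN : N ≤ 64) :
    {x : GolayPt → ℤ | x ∈ leechLattice ∧ sqNorm x = (N : ℤ) ∧ ∀ i, x i ∈ R}.ncard
      = PhiTotG G N := by
  have h1 : {x : GolayPt → ℤ | x ∈ leechLattice ∧ sqNorm x = (N : ℤ) ∧ ∀ i, x i ∈ R}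
      = ↑((Finset.range 2 ×ˢ Finset.range 4096).biUnion (fun p => SFR R p.1 p.2 N)) := by
    ext x
    rw [Set.mem_ofPred_eq, ← and_assoc, mem_leech_norm_iff hN, Finset.mem_coe,
      Finset.mem_biUnion]
    constructor
    · rintro ⟨⟨m, hm, k, hk, hx⟩, hR⟩
      exact ⟨(m, k), Finset.mem_product.mpr ⟨Finset.mem_range.mpr hm, Finset.mem_range.mpr hk⟩,
        Finset.mem_filter.mpr ⟨hx, hR⟩⟩
    · rintro ⟨⟨m, k⟩, hp, hx⟩
      obtain ⟨hm, hk⟩ := Finset.mem_product.mp hp
      obtain ⟨hx1, hx2⟩ := Finset.mem_filter.mp hx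
      exact ⟨⟨m, Finset.mem_range.mp hm, k, Finset.mem_range.mp hk, hx1⟩, hx2⟩
  rw [h1, Set.ncard_coe_finset, Finset.card_biUnion, Finset.sum_product]
  · have h2 : ∀ m ∈ Finset.range 2, ∑ k ∈ Finset.range 4096, (SFR R m k N).card
        = PhiG G N m 0 + 759 * PhiG G N m 8 + 2576 * PhiG G N m 12 + 759 * PhiG G N m 16
          + PhiG G N m 24 := by
      intro m hm
      rw [Finset.sum_congr rfl (fun k _ => card_SFR R G hG m k N (Finset.mem_range.mp hm) hN)]
      exact sum_weights (fun w => PhiG G N m w)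
    rw [Finset.sum_congr rfl h2, Finset.sum_range_succ, Finset.sum_range_one]
    rfl
  · rintro ⟨m, k⟩ hp ⟨m', k'⟩ hq hpq
    obtain ⟨hm, hk⟩ := Finset.mem_product.mp hp
    obtain ⟨hm', hk'⟩ := Finset.mem_product.mp hq
    exact (SF_disjoint (Finset.mem_range.mp hm) (Finset.mem_range.mp hm')
      (Finset.mem_range.mp hk) (Finset.mem_range.mp hk') hpq).mono
      (Finset.filter_subset _ _) (Finset.filter_subset _ _)

end Cfsg.Agent.H93
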