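import Mathlib
import Cfsg.Prelude.Def_Sporadic_a
import Cfsg.Agent.H93.LeechCount2
import Cfsg.Agent.H93.LeechClasses

/-!
The shape census of the vectors of square length 48 in the rank-24 lattice.
-/

set_option autoImplicit false

namespace Cfsg.Agent.H93

open Cfsg

/-- Coordinates `0, ±2`. -/
def R1 : Finset ℤ := {0, 2, -2}

def GR1 : ℕ → ℕ
  | 0 => BB ^ 8
  | 2 => BB ^ 1030 + BB ^ 1034
  | _ => 0

theorem hGR1 : ∀ r < 4, ∑ a ∈ (AA r).filter (fun a => a ∈ R1), BB ^ enc a = GR1 r := by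
  intro r hr
  interval_cases r
  · have : (AA 0).filter (fun a => a ∈ R1) = {0} := by decide
    rw [this]; simp [enc, GR1]
  · have : (AA 1).filter (fun a => a ∈ R1) = ∅ := by decide
    rw [this]; simp [GR1]
  · have : (AA 2).filter (fun a => a ∈ R1) = {-2, 2} := by decide
    rw [this]; simp [enc, GR1]
  · have : (AA 3).filter (fun a => a ∈ R1) = ∅ := by decide
    rw [this]; simp [GR1]

/-- Coordinates `±1, ±3`. -/
def R2 : Finset ℤ := {-3, -1, 1, 3}

def GR2 : ℕ → ℕ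
  | 1 => BB ^ 2309 + BB ^ 265
  | 3 => BB ^ 263 + BB ^ 2315
  | _ => 0

theorem hGR2 : ∀ r < 4, ∑ a ∈ (AA r).filter (fun a => a ∈ R2), BB ^ enc a = GR2 r := by
  intro r hr
  interval_cases r
  · have : (AA 0).filter (fun a => a ∈ R2) = ∅ := by decide
    rw [this]; simp [GR2]
  · have : (AA 1).filter (fun a => a ∈ R2) = {-3, 1} := by decide
    rw [this]; simp [enc, GR2]
  · have : (AA 2).filter (fun a => a ∈ R2) = ∅ := by decide
    rw [this]; simp [GR2]
  · have : (AA 3).filter (fun a => a ∈ R2) = {-1, 3} := by decide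
    rw [this]; simp [enc, GR2]

/-- All coordinates of absolute value at most 8 other than `±4`. -/
def R3 : Finset ℤ := {-8, -7, -6, -5, -3, -2, -1, 0, 1, 2, 3, 5, 6, 7, 8}

def GR3 : ℕ → ℕ
  | 0 => BB ^ 16384 + (BB ^ 8 + BB ^ 16400)
  | 1 => BB ^ 12545 + (BB ^ 2309 + (BB ^ 265 + BB ^ 6413))
  | 2 => BB ^ 9218 + (BB ^ 1030 + (BB ^ 1034 + BB ^ 9230))
  | 3 => BB ^ 6403 + (BB ^ 263 + (BB ^ 2315 + BB ^ 12559))
  | _ => 0

theorem hGR3 : ∀ r < 4, ∑ a ∈ (AA r).filter (fun a => a ∈ R3), BB ^ enc a = GR3 r := by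
  intro r hr
  interval_cases r
  · have : (AA 0).filter (fun a => a ∈ R3) = {-8, 0, 8} := by decide
    rw [this]; simp [enc, GR3]
  · have : (AA 1).filter (fun a => a ∈ R3) = {-7, -3, 1, 5} := by decide
    rw [this]; simp [enc, GR3]
  · have : (AA 2).filter (fun a => a ∈ R3) = {-6, -2, 2, 6} := by decide
    rw [this]; simp [enc, GR3]
  · have : (AA 3).filter (fun a => a ∈ R3) = {-5, -1, 3, 7} := by decide
    rw [this]; simp [enc, GR3]

/-- All coordinates of absolute value at most 8 other than `±5`. -/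
def R4 : Finset ℤ := {-8, -7, -6, -4, -3, -2, -1, 0, 1, 2, 3, 4, 6, 7, 8}

def GR4 : ℕ → ℕ
  | 0 => BB ^ 16384 + (BB ^ 4100 + (BB ^ 8 + (BB ^ 4108 + BB ^ 16400)))
  | 1 => BB ^ 12545 + (BB ^ 2309 + BB ^ 265)
  | 2 => BB ^ 9218 + (BB ^ 1030 + (BB ^ 1034 + BB ^ 9230))
  | 3 => BB ^ 263 + (BB ^ 2315 + BB ^ 12559)
  | _ => 0

theorem hGR4 : ∀ r < 4, ∑ a ∈ (AA r).filter (fun a => a ∈ R4), BB ^ enc a = GR4 r := by
  intro r hr
  interval_cases r
  · have : (AA 0).filter (fun a => a ∈ R4) = {-8, -4, 0, 4, 8} := by decide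
    rw [this]; simp [enc, GR4]
  · have : (AA 1).filter (fun a => a ∈ R4) = {-7, -3, 1} := by decide
    rw [this]; simp [enc, GR4]
  · have : (AA 2).filter (fun a => a ∈ R4) = {-6, -2, 2, 6} := by decide
    rw [this]; simp [enc, GR4]
  · have : (AA 3).filter (fun a => a ∈ R4) = {-1, 3, 7} := by decide
    rw [this]; simp [enc, GR4]

theorem norm48_finite :
    {x : GolayPt → ℤ | x ∈ leechLattice ∧ sqNorm x = 48}.Finite := by
  have h := VN_finite 48 (by norm_num)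
  exact_mod_cast h

theorem ncard_shape1 (h1 : PhiTotG GR1 48 = 5275648) :
    {x : GolayPt → ℤ | x ∈ leechLattice ∧ sqNorm x = 48 ∧
      ∀ i, x i = 0 ∨ x i = 2 ∨ x i = -2}.ncard = 5275648 := by
  have h := ncard_norm_R R1 GR1 hGR1 48 (by norm_num)
  rw [h1] at h
  have e : {x : GolayPt → ℤ | x ∈ leechLattice ∧ sqNorm x = 48 ∧
      ∀ i, x i = 0 ∨ x i = 2 ∨ x i = -2}
      = {x : GolayPt → ℤ | x ∈ leechLattice ∧ sqNorm x = ((48 : ℕ) : ℤ) ∧ ∀ i, x i ∈ R1} := by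
    ext x
    simp [R1]
  rw [e]; exact h

theorem mem_R3_iff (a : ℤ) (h1 : -8 ≤ a) (h2 : a ≤ 8) : a ∈ R3 ↔ ¬ |a| = 4 := by
  interval_cases a <;> simp [R3]

theorem mem_R4_iff (a : ℤ) (h1 : -8 ≤ a) (h2 : a ≤ 8) : a ∈ R4 ↔ ¬ |a| = 5 := by
  interval_cases a <;> simp [R4]

theorem ncard_shape3 (h3 : PhiTotG GR3 48 = 13664256) :
    {x : GolayPt → ℤ | x ∈ leechLattice ∧ sqNorm x = 48 ∧ ∃ i, |x i| = 4}.ncard = 3108864 := by
  have h := ncard_norm_R R3 GR3 hGR3 48 (by norm_num)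
  rw [h3] at h
  have e : {x : GolayPt → ℤ | x ∈ leechLattice ∧ sqNorm x = 48 ∧ ∃ i, |x i| = 4}
      = {x : GolayPt → ℤ | x ∈ leechLattice ∧ sqNorm x = 48}
        \ {x : GolayPt → ℤ | x ∈ leechLattice ∧ sqNorm x = ((48 : ℕ) : ℤ) ∧ ∀ i, x i ∈ R3} := by
    ext x
    simp only [Set.mem_ofPred_eq, Set.mem_sdiff, Nat.cast_ofNat]
    constructor
    · rintro ⟨hx, hn, i, hi⟩
      refine ⟨⟨hx, hn⟩, fun hc => ?_⟩
      have hb := coord_bound (N := 48) (by norm_num) (by rw [hn]; norm_num) i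
      exact (mem_R3_iff _ hb.1 hb.2).mp (hc.2.2 i) hi
    · rintro ⟨⟨hx, hn⟩, hc⟩
      refine ⟨hx, hn, ?_⟩
      by_contra hne
      apply hc
      refine ⟨hx, hn, fun i => ?_⟩
      have hb := coord_bound (N := 48) (by norm_num) (by rw [hn]; norm_num) i
      exact (mem_R3_iff _ hb.1 hb.2).mpr (fun hi => hne ⟨i, hi⟩)
  have hsub : {x : GolayPt → ℤ | x ∈ leechLattice ∧ sqNorm x = ((48 : ℕ) : ℤ) ∧ ∀ i, x i ∈ R3}
      ⊆ {x : GolayPt → ℤ | x ∈ leechLattice ∧ sqNorm x = 48} := by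
    intro x hx
    exact ⟨hx.1, by exact_mod_cast hx.2.1⟩
  rw [e, Set.ncard_sdiff hsub (norm48_finite.subset hsub), h, ncard_norm_48]

theorem ncard_shape4 (h4 : PhiTotG GR4 48 = 16674816) :
    {x : GolayPt → ℤ | x ∈ leechLattice ∧ sqNorm x = 48 ∧ ∃ i, |x i| = 5}.ncard = 98304 := by
  have h := ncard_norm_R R4 GR4 hGR4 48 (by norm_num)
  rw [h4] at h
  have e : {x : GolayPt → ℤ | x ∈ leechLattice ∧ sqNorm x = 48 ∧ ∃ i, |x i| = 5}
      = {x : GolayPt → ℤ | x ∈ leechLattice ∧ sqNorm x = 48}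
        \ {x : GolayPt → ℤ | x ∈ leechLattice ∧ sqNorm x = ((48 : ℕ) : ℤ) ∧ ∀ i, x i ∈ R4} := by
    ext x
    simp only [Set.mem_ofPred_eq, Set.mem_sdiff, Nat.cast_ofNat]
    constructor
    · rintro ⟨hx, hn, i, hi⟩
      refine ⟨⟨hx, hn⟩, fun hc => ?_⟩
      have hb := coord_bound (N := 48) (by norm_num) (by rw [hn]; norm_num) i
      exact (mem_R4_iff _ hb.1 hb.2).mp (hc.2.2 i) hi
    · rintro ⟨⟨hx, hn⟩, hc⟩
      refine ⟨hx, hn, ?_⟩
      by_contra hne
      apply hc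
      refine ⟨hx, hn, fun i => ?_⟩
      have hb := coord_bound (N := 48) (by norm_num) (by rw [hn]; norm_num) i
      exact (mem_R4_iff _ hb.1 hb.2).mpr (fun hi => hne ⟨i, hi⟩)
  have hsub : {x : GolayPt → ℤ | x ∈ leechLattice ∧ sqNorm x = ((48 : ℕ) : ℤ) ∧ ∀ i, x i ∈ R4}
      ⊆ {x : GolayPt → ℤ | x ∈ leechLattice ∧ sqNorm x = 48} := by
    intro x hx
    exact ⟨hx.1, by exact_mod_cast hx.2.1⟩
  rw [e, Set.ncard_sdiff hsub (norm48_finite.subset hsub), h, ncard_norm_48]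

theorem shape2_iff {x : GolayPt → ℤ} (hx : x ∈ leechLattice) (hn : sqNorm x = 48) :
    (∃ i j k, i ≠ j ∧ j ≠ k ∧ i ≠ k ∧ |x i| = 3 ∧ |x j| = 3 ∧ |x k| = 3) ↔ ∀ i, x i ∈ R2 := by
  constructor
  · rintro ⟨i, j, k, hij, hjk, hik, hi, hj, hk⟩
    obtain ⟨m, hp, -, -⟩ := mem_leechLattice_iff.mp hx
    have hsq : ∀ t, |x t| = 3 → x t ^ 2 = 9 := fun t ht => by rw [← sq_abs, ht]; norm_num
    have hodd : ∀ t, x t % 2 = 1 := by
      intro t
      have h1 := hp i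
      have h2 := hp t
      have h3 : x i = 3 ∨ x i = -3 := by
        rcases abs_cases (x i) with ⟨h, _⟩ | ⟨h, _⟩ <;> [left; right] <;> omega
      unfold Int.ModEq at h1 h2
      omega
    have hg : ∀ t, 0 ≤ x t ^ 2 - 1 := by
      intro t
      have h1 := hodd t
      have h2 : x t ≠ 0 := by omega
      have h3 : 0 < x t ^ 2 := by positivity
      omega
    have hsum : ∑ t, (x t ^ 2 - 1) = 24 := by
      rw [Finset.sum_sub_distrib]
      have : ∑ t, x t ^ 2 = 48 := hn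
      rw [this]
      simp
    intro l
    simp only [R2, Finset.mem_insert, Finset.mem_singleton]
    have habs : ∀ t, |x t| = 3 → x t = 3 ∨ x t = -3 := by
      intro t ht
      rcases abs_cases (x t) with ⟨h, _⟩ | ⟨h, _⟩
      · left; omega
      · right; omega
    by_cases hli : l = i
    · rcases habs l (by rw [hli]; exact hi) with h | h <;> simp [h]
    by_cases hlj : l = j
    · rcases habs l (by rw [hlj]; exact hj) with h | h <;> simp [h]
    by_cases hlk : l = k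
    · rcases habs l (by rw [hlk]; exact hk) with h | h <;> simp [h]
    have hle := Finset.sum_le_sum_of_subset_of_nonneg
      (Finset.subset_univ ({i, j, k, l} : Finset GolayPt)) (fun t _ _ => hg t)
    rw [hsum, Finset.sum_insert (by simp [hij, hik, Ne.symm hli]),
      Finset.sum_insert (by simp [hjk, Ne.symm hlj]), Finset.sum_pair (Ne.symm hlk),
      hsq i hi, hsq j hj, hsq k hk] at hle
    have h1 := hodd l
    have h2 : -1 ≤ x l ∧ x l ≤ 1 := by constructor <;> nlinarith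
    omega
  · intro hR
    have hval : ∀ t, x t ^ 2 = 1 + 8 * (if |x t| = 3 then 1 else 0) := by
      intro t
      have := hR t
      simp only [R2, Finset.mem_insert, Finset.mem_singleton] at this
      rcases this with h | h | h | h <;> rw [h] <;> norm_num
    have hsum : (48 : ℤ) = 24 + 8 * ((Finset.univ.filter (fun t => |x t| = 3)).card : ℤ) := by
      have h1 : sqNorm x = ∑ t, (1 + 8 * (if |x t| = 3 then (1 : ℤ) else 0)) :=
        Finset.sum_congr rfl (fun t _ => hval t)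
      rw [hn, Finset.sum_add_distrib, ← Finset.mul_sum, Finset.sum_boole] at h1
      simpa using h1
    have hcard : (Finset.univ.filter (fun t => |x t| = 3)).card = 3 := by omega
    obtain ⟨i, j, k, hij, hik, hjk, hT⟩ := Finset.card_eq_three.mp hcard
    have hi : i ∈ Finset.univ.filter (fun t => |x t| = 3) := by rw [hT]; simp
    have hj : j ∈ Finset.univ.filter (fun t => |x t| = 3) := by rw [hT]; simp
    have hk : k ∈ Finset.univ.filter (fun t => |x t| = 3) := by rw [hT]; simp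
    exact ⟨i, j, k, hij, hjk, hik, (Finset.mem_filter.mp hi).2, (Finset.mem_filter.mp hj).2,
      (Finset.mem_filter.mp hk).2⟩

theorem ncard_shape2 (h2 : PhiTotG GR2 48 = 8290304) :
    {x : GolayPt → ℤ | x ∈ leechLattice ∧ sqNorm x = 48 ∧
      ∃ i j k, i ≠ j ∧ j ≠ k ∧ i ≠ k ∧ |x i| = 3 ∧ |x j| = 3 ∧ |x k| = 3}.ncard = 8290304 := by
  have h := ncard_norm_R R2 GR2 hGR2 48 (by norm_num)
  rw [h2] at h
  have e : {x : GolayPt → ℤ | x ∈ leechLattice ∧ sqNorm x = 48 ∧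
      ∃ i j k, i ≠ j ∧ j ≠ k ∧ i ≠ k ∧ |x i| = 3 ∧ |x j| = 3 ∧ |x k| = 3}
      = {x : GolayPt → ℤ | x ∈ leechLattice ∧ sqNorm x = ((48 : ℕ) : ℤ) ∧ ∀ i, x i ∈ R2} := by
    ext x
    simp only [Set.mem_ofPred_eq, Nat.cast_ofNat]
    constructor
    · rintro ⟨hx, hn, h3⟩
      exact ⟨hx, hn, (shape2_iff hx hn).mp h3⟩
    · rintro ⟨hx, hn, h3⟩
      exact ⟨hx, hn, (shape2_iff hx hn).mpr h3⟩
  rw [e]; exact h

set_option maxRecDepth 100000 in
theorem phi_R1 : PhiTotG GR1 48 = 5275648 := by decide +kernel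

set_option maxRecDepth 100000 in
theorem phi_R2 : PhiTotG GR2 48 = 8290304 := by decide +kernel

set_option maxRecDepth 100000 in
theorem phi_R3 : PhiTotG GR3 48 = 13664256 := by decide +kernel

set_option maxRecDepth 100000 in
theorem phi_R4 : PhiTotG GR4 48 = 16674816 := by decide +kernel

/-- The shape census of the lattice vectors of square length 48. -/
theorem shapes48 :
    {x : GolayPt → ℤ | x ∈ leechLattice ∧ sqNorm x = 48 ∧
      ∀ i, x i = 0 ∨ x i = 2 ∨ x i = -2}.ncard = 5275648 ∧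
    {x : GolayPt → ℤ | x ∈ leechLattice ∧ sqNorm x = 48 ∧
      ∃ i j k, i ≠ j ∧ j ≠ k ∧ i ≠ k ∧ |x i| = 3 ∧ |x j| = 3 ∧ |x k| = 3}.ncard = 8290304 ∧
    {x : GolayPt → ℤ | x ∈ leechLattice ∧ sqNorm x = 48 ∧ ∃ i, |x i| = 4}.ncard = 3108864 ∧
    {x : GolayPt → ℤ | x ∈ leechLattice ∧ sqNorm x = 48 ∧ ∃ i, |x i| = 5}.ncard = 98304 :=
  ⟨ncard_shape1 phi_R1, ncard_shape2 phi_R2, ncard_shape3 phi_R3, ncard_shape4 phi_R4⟩

end Cfsg.Agent.H93
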